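import Cfsg.Agent.L0.Fus.Yosh3
import Cfsg.Agent.L0.Fus.GrpSt
set_option autoImplicit false
/-! Yoshida's theorem for groups. -/

open Pointwise
open scoped commutatorElement

namespace Cfsg.Agent.L0.Fus

open Cfsg.Agent.L0 Cfsg.FusionSystem

universe u

variable {G : Type u} [Group G] [Finite G] {p : ℕ} [Fact p.Prime]

theorem group_focal (S : Sylow p G) : (groupFusionSystem (S : Subgroup G)).focalSubgroup = (S : Subgroup G) ⊓ commutator G := by
  apply le_antisymm
  · refine (Subgroup.closure_le _).mpr ?_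
    rintro _ ⟨P, φ, x, hφ, rfl⟩
    obtain ⟨hP, hφS, g, hg⟩ := hφ
    refine Subgroup.mem_inf.mpr ⟨(S : Subgroup G).mul_mem ((S : Subgroup G).inv_mem (hP x.2)) (hφS x), ?_⟩
    have h1 := Subgroup.commutator_mem_commutator (Subgroup.mem_top (x : G)⁻¹) (Subgroup.mem_top g)
    rw [hg x, commutator_def]
    rw [commutatorElement_def] at h1
    simpa [mul_assoc] using h1
  · apply H6.focal_le
    intro a g ha hga
    have hP : Subgroup.zpowers a ≤ (S : Subgroup G) := Subgroup.zpowers_le.mpr ha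
    refine Subgroup.subset_closure ⟨Subgroup.zpowers a, conjHom _ g⁻¹, ⟨a, Subgroup.mem_zpowers a⟩, ⟨hP, ?_, g⁻¹, fun x => rfl⟩, ?_⟩
    · have h2 : (Subgroup.zpowers a) ≤ (S : Subgroup G).comap (MulAut.conj g⁻¹).toMonoidHom := by
        rw [Subgroup.zpowers_le]
        change g⁻¹ * a * (g⁻¹)⁻¹ ∈ (S : Subgroup G)
        rwa [inv_inv]
      exact fun x => h2 x.2
    · rw [conjHom_apply, inv_inv]

theorem group_locfoc_le (S : Sylow p G) : locfoc (groupFusionSystem (S : Subgroup G)) (S : Subgroup G) ≤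
    ⁅Subgroup.normalizer ((S : Subgroup G) : Set G), Subgroup.normalizer ((S : Subgroup G) : Set G)⁆ := by
  refine (Subgroup.closure_le _).mpr ?_
  rintro _ ⟨P, φ, x, hφ, rfl⟩
  obtain ⟨h2, h3, h4, ψ, hψ, h5, h6⟩ := hφ
  obtain ⟨hPS, hψS, g, hg⟩ := hψ
  have hPS' : P ≤ (S : Subgroup G) := le_sup_left.trans hPS
  have hgN : g ∈ Subgroup.normalizer ((S : Subgroup G) : Set G) := by
    refine mem_normalizer_of_finite fun y hy => ?_
    have h7 : ψ ⟨y, (le_sup_right : (S : Subgroup G) ≤ P ⊔ (S : Subgroup G)) hy⟩ ∈ (S : Subgroup G) := hψS _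
    rwa [hg] at h7
  have h7 : φ x = g * x * g⁻¹ := by rw [← h5 x, hg]; rfl
  have h1 := Subgroup.commutator_mem_commutator (Subgroup.inv_mem _ ((Subgroup.le_normalizer : (S : Subgroup G) ≤ _) (hPS' x.2))) hgN
  rw [h7]
  rw [commutatorElement_def] at h1
  simpa [mul_assoc] using h1

theorem yoshida_group (S : Sylow p G) (h : (S : Subgroup G) ⊓ commutator G ≠ (S : Subgroup G) ⊓ ⁅Subgroup.normalizer ((S : Subgroup G) : Set G), Subgroup.normalizer ((S : Subgroup G) : Set G)⁆) : ∃ (P : Sylow p (Equiv.Perm (Fin (p ^ 2)))) (f : ↥(S : Subgroup G) →* ↥(P : Subgroup (Equiv.Perm (Fin (p ^ 2))))), Function.Surjective f := by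
  refine yoshida (F := groupFusionSystem (S : Subgroup G)) S.2 (group_saturated S) fun hle => h ?_
  apply le_antisymm
  · refine le_inf inf_le_left ?_
    rw [← group_focal]
    exact hle.trans (group_locfoc_le S)
  · exact inf_le_inf_left _ (Subgroup.commutator_mono le_top le_top)

end Cfsg.Agent.L0.Fus
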