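import Cfsg.Agent.H1.ZS3
import Cfsg.Agent.L0.Fus.Well4
import Cfsg.Agent.L0.Fus.GrpSt
set_option autoImplicit false
set_option linter.style.haveILetI false
/-! The centre of the 2-fusion system of a finite group. -/

open Pointwise

namespace Cfsg.Agent.L0.Fus

open Cfsg Cfsg.Agent.L0 Cfsg.FusionSystem

universe u

section
variable {G : Type u} [Group G] [Finite G]

theorem oddCore_quot_central {y : G} (hy : orderOf y = 2) (hyc : y ∈ Subgroup.center G) (h1 : oddCore G = ⊥)
    [hNn : (Subgroup.zpowers y).Normal] : oddCore (G ⧸ Subgroup.zpowers y) = ⊥ := by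
  set N := Subgroup.zpowers y with hN
  set L := (oddCore (G ⧸ N)).comap (QuotientGroup.mk' N) with hL
  have hcard : Nat.card L = 2 * Nat.card (oddCore (G ⧸ N)) := by
    have h2 := L0.card_comap_mk' N (oddCore (G ⧸ N))
    have h3 : Nat.card N = 2 := by rw [hN, Nat.card_zpowers, hy]
    rw [hL, h2, h3]
    try ring
  haveI : Fact (Nat.Prime 2) := ⟨Nat.prime_two⟩
  have hodd := L0.odd_card_oddCore (G ⧸ N)
  have hnpc : HasNormalPComplement 2 L := by
    let P : Sylow 2 L := default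
    apply H1.npc_of_cyclic_two P
    have hPc : Nat.card (P : Subgroup L) = 2 := by
      have h2 := P.card_eq_multiplicity
      have h3 : ¬ 2 ∣ Nat.card (oddCore (G ⧸ N)) := fun hd => (Nat.not_even_iff_odd.mpr hodd) (even_iff_two_dvd.mpr hd)
      rw [h2, hcard, Nat.factorization_mul (by norm_num) hodd.pos.ne', Finsupp.add_apply,
        Nat.factorization_eq_zero_of_not_dvd h3, Nat.prime_two.factorization, Finsupp.single_eq_same, add_zero, pow_one]
    exact isCyclic_of_prime_card hPc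
  obtain ⟨K, hK, hKc, k, hk⟩ := H1.hasNormalPComplement_iff.mp hnpc
  have hKle : K ≤ oddCore L := L0.le_pPrimeCore hKc
  haveI : L.Normal := by rw [hL]; infer_instance
  have h2 := L0.pPrimeCore_subgroup_le 2 L
  have h3 : oddCore L = ⊥ := by
    have h4 : (oddCore L).map L.subtype ≤ ⊥ := by rw [← h1]; exact h2
    exact (Subgroup.map_eq_bot_iff_of_injective _ L.subtype_injective).mp (le_bot_iff.mp h4)
  have h4 : K = ⊥ := le_bot_iff.mp (hKle.trans h3.le)
  rw [h4, Subgroup.index_bot, hcard] at hk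
  have h5 : Nat.card (oddCore (G ⧸ N)) = 1 := by
    have h6 : Nat.card (oddCore (G ⧸ N)) ∣ 2 ^ k := ⟨2, by rw [← hk]; ring⟩
    obtain ⟨j, -, hj⟩ := (Nat.dvd_prime_pow Nat.prime_two).mp h6
    rcases Nat.eq_zero_or_pos j with rfl | hj0
    · rw [hj, pow_zero]
    · exfalso
      rw [hj] at hodd
      exact (Nat.not_even_iff_odd.mpr hodd) (even_iff_two_dvd.mpr (dvd_pow_self 2 hj0.ne'))
  exact Subgroup.card_eq_one.mp h5

theorem conj_into_sylow {p : ℕ} [Fact p.Prime] (S : Sylow p G) (N : Subgroup G) [hN : N.Normal] {x : G}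
    (hx : x ∈ (S : Subgroup G) ⊔ N) (hp : ∃ k, x ^ p ^ k = 1) : ∃ n ∈ N, n * x * n⁻¹ ∈ (S : Subgroup G) := by
  set H := (S : Subgroup G) ⊔ N with hH
  let S' : Sylow p H := S.subtype le_sup_left
  have hxp : IsPGroup p (Subgroup.zpowers (⟨x, hx⟩ : H)) := by
    rintro ⟨_, j, rfl⟩
    obtain ⟨k, hk⟩ := hp
    refine ⟨k, Subtype.ext (Subtype.ext ?_)⟩
    change (x ^ j) ^ p ^ k = 1
    rw [← zpow_natCast, ← zpow_mul, mul_comm, zpow_mul, zpow_natCast, hk, one_zpow]
  obtain ⟨Q, hQ⟩ := hxp.exists_le_sylow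
  obtain ⟨h, hh⟩ := MulAction.exists_smul_eq H Q S'
  have h1 : h * ⟨x, hx⟩ * h⁻¹ ∈ (S' : Subgroup H) := by
    rw [← hh]
    exact ⟨⟨x, hx⟩, hQ (Subgroup.mem_zpowers _), rfl⟩
  have h2 : (h : G) * x * (h : G)⁻¹ ∈ (S : Subgroup G) := h1
  obtain ⟨s, hs, n, hn, hsn⟩ := Subgroup.mem_sup_of_normal_right.mp h.2
  refine ⟨n, hn, ?_⟩
  have h3 := (S : Subgroup G).mul_mem ((S : Subgroup G).mul_mem ((S : Subgroup G).inv_mem hs) h2) hs
  have e : s⁻¹ * ((h : G) * x * (h : G)⁻¹) * s = n * x * n⁻¹ := by rw [← hsn]; group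
  rwa [e] at h3

/-- Glauberman's Z*-theorem for elements of 2-power order. -/
theorem zstar_sylow (n : ℕ) : ∀ (G : Type u) [Group G] [Finite G], Nat.card G = n → ∀ (S : Sylow 2 G), ∀ z ∈ (S : Subgroup G),
    (∀ g : G, g * z * g⁻¹ ∈ (S : Subgroup G) → g * z * g⁻¹ = z) → ∀ g : G, z * g * z⁻¹ * g⁻¹ ∈ oddCore G := by
  haveI : Fact (Nat.Prime 2) := ⟨Nat.prime_two⟩
  induction n using Nat.strong_induction_on with
  | _ n ih =>
  intro G _ _ hcard S z hzS hz g
  by_cases hz1 : z = 1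
  · rw [hz1]; simp [Subgroup.one_mem]
  obtain ⟨k, hk⟩ := S.2 ⟨z, hzS⟩
  have hk' : z ^ 2 ^ k = 1 := congrArg Subtype.val hk
  -- passing to quotients
  have hquot : ∀ (N : Subgroup G) [N.Normal], N ≠ ⊥ → ∀ g : G, (QuotientGroup.mk' N) (z * g * z⁻¹ * g⁻¹) ∈ oddCore (G ⧸ N) := by
    intro N hN hN1 g
    have hlt : Nat.card (G ⧸ N) < n := by
      rw [← hcard, Subgroup.card_eq_card_quotient_mul_card_subgroup N]
      have h2 : 1 < Nat.card N := (Subgroup.one_lt_card_iff_ne_bot N).mpr hN1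
      exact lt_mul_of_one_lt_right Nat.card_pos h2
    let S' : Sylow 2 (G ⧸ N) := S.mapSurjective (QuotientGroup.mk'_surjective N)
    have hS' : (S' : Subgroup (G ⧸ N)) = (S : Subgroup G).map (QuotientGroup.mk' N) := rfl
    have h1 := ih _ hlt (G ⧸ N) rfl S' (QuotientGroup.mk' N z) ⟨z, hzS, rfl⟩ ?_ (QuotientGroup.mk' N g)
    · rw [← map_inv, ← map_inv, ← map_mul, ← map_mul, ← map_mul] at h1
      exact h1
    · intro a ha
      obtain ⟨a, rfl⟩ := QuotientGroup.mk'_surjective N a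
      rw [← map_inv, ← map_mul, ← map_mul] at ha ⊢
      have h2 : a * z * a⁻¹ ∈ (S : Subgroup G) ⊔ N := by
        obtain ⟨s, hs, hsa⟩ := ha
        have h3 : s⁻¹ * (a * z * a⁻¹) ∈ N := QuotientGroup.eq.mp hsa
        have h4 := Subgroup.mul_mem_sup hs h3
        rwa [mul_inv_cancel_left] at h4
      obtain ⟨m, hm, hmz⟩ := conj_into_sylow S N h2 ⟨k, by
        rw [conj_pow, hk']; simp⟩
      have h5 := hz (m * a) (by simpa [mul_assoc] using hmz)
      have h6 := congrArg (QuotientGroup.mk' N) h5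
      have h7 : (QuotientGroup.mk' N) m = 1 := (QuotientGroup.eq_one_iff m).mpr hm
      rw [map_mul, map_mul, map_inv, map_mul, h7, one_mul] at h6
      rw [map_mul, map_mul, map_inv]
      exact h6
  by_cases hO : oddCore G = ⊥
  · -- the involution
    have hzo : orderOf z ∣ 2 ^ k := orderOf_dvd_of_pow_eq_one hk'
    obtain ⟨j, -, hj⟩ := (Nat.dvd_prime_pow Nat.prime_two).mp hzo
    have hj0 : j ≠ 0 := by
      rintro rfl
      rw [pow_zero] at hj
      exact hz1 (orderOf_eq_one_iff.mp hj)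
    set y := z ^ 2 ^ (j - 1) with hy
    have hyo : orderOf y = 2 := by
      have h0 : 0 < orderOf z := by rw [hj]; exact pow_pos (by norm_num) _
      rw [hy, orderOf_pow' z (pow_ne_zero _ (by norm_num)), hj]
      obtain ⟨i, rfl⟩ := Nat.exists_eq_succ_of_ne_zero hj0
      rw [Nat.succ_eq_add_one, Nat.add_sub_cancel, pow_succ, Nat.gcd_eq_right (Dvd.intro _ rfl), Nat.mul_div_cancel_left _ (pow_pos (by norm_num) _)]
    have hyS : y ∈ (S : Subgroup G) := (S : Subgroup G).pow_mem hzS _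
    -- y is fixed by fusion
    have hcen : z ∈ (groupFusionSystem (S : Subgroup G)).center := by
      rw [mem_center_iff S.2 (group_saturated S)]
      refine ⟨hzS, ?_⟩
      rintro P φ ⟨hP, hφ, a, ha⟩ hzP
      have h1 := ha ⟨z, hzP⟩
      rw [h1]
      refine hz a ?_
      rw [← h1]; exact hφ _
    have hyfix : ∀ a : G, a * y * a⁻¹ ∈ (S : Subgroup G) → a * y * a⁻¹ = y := by
      intro a ha
      have h1 := (Subgroup.pow_mem _ hcen (2 ^ (j - 1)))
      have h2 := center_fixes h1 (Subgroup.zpowers y) (conjHom _ a) ⟨Subgroup.zpowers_le.mpr hyS, ?_, a, fun x => rfl⟩ (Subgroup.mem_zpowers _)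
      · exact h2
      · have h3 : Subgroup.zpowers y ≤ (S : Subgroup G).comap (MulAut.conj a).toMonoidHom := by
          rw [Subgroup.zpowers_le]; exact ha
        exact fun x => h3 x.2
    have hiso : IsIsolatedInvolution y := by
      refine ⟨hyo, fun a hcomm => ?_⟩
      have hao : orderOf (a * y * a⁻¹) = 2 := by
        rw [← hyo]
        exact (MulAut.conj a).orderOf_eq y
      -- the 2-group generated
      have hcl : IsPGroup 2 (Subgroup.zpowers y ⊔ Subgroup.zpowers (a * y * a⁻¹) : Subgroup G) := by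
        have h1 : IsPGroup 2 (Subgroup.zpowers y) := IsPGroup.of_card (n := 1) (by rw [Nat.card_zpowers, hyo, pow_one])
        have h2 : IsPGroup 2 (Subgroup.zpowers (a * y * a⁻¹)) := IsPGroup.of_card (n := 1) (by rw [Nat.card_zpowers, hao, pow_one])
        refine h1.to_sup_of_normal_right' h2 ?_
        rw [Subgroup.zpowers_le]
        refine mem_normalizer_of_finite fun b hb => ?_
        obtain ⟨i, rfl⟩ := Subgroup.mem_zpowers_iff.mp hb
        have h3 : y * (a * y * a⁻¹) ^ i = (a * y * a⁻¹) ^ i * y := (hcomm.zpow_right i).eq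
        rw [h3, mul_inv_cancel_right]
        exact hb
      obtain ⟨Q, hQ⟩ := hcl.exists_le_sylow
      obtain ⟨h, hh⟩ := MulAction.exists_smul_eq G Q S
      have hmem : ∀ b ∈ (Q : Subgroup G), h * b * h⁻¹ ∈ (S : Subgroup G) := by
        intro b hb
        rw [← hh]
        exact ⟨b, hb, rfl⟩
      have h1 := hyfix h (hmem y (hQ (Subgroup.mem_sup_left (Subgroup.mem_zpowers _))))
      have h2 := hmem _ (hQ (Subgroup.mem_sup_right (Subgroup.mem_zpowers (a * y * a⁻¹))))
      have e : h * (a * y * a⁻¹) * h⁻¹ = (h * a) * y * (h * a)⁻¹ := by group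
      rw [e] at h2
      have h3 := hyfix _ h2
      rw [← e] at h3
      have h4 : a * y * a⁻¹ = h⁻¹ * y * h := by
        have e4 : a * y * a⁻¹ = h⁻¹ * (h * (a * y * a⁻¹) * h⁻¹) * h := by group
        rw [e4, h3]
      rw [h4]
      have h5 : y = h⁻¹ * (h * y * h⁻¹) * h := by group
      rw [h1] at h5
      exact h5.symm
    have hyc : y ∈ Subgroup.center G := by
      rw [Subgroup.mem_center_iff]
      intro a
      have h1 := H1.zstar hiso a
      rw [hO, Subgroup.mem_bot, mul_inv_eq_one, mul_inv_eq_iff_eq_mul] at h1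
      exact h1.symm
    haveI hNn : (Subgroup.zpowers y).Normal := by
      constructor
      intro n hn k
      obtain ⟨j, rfl⟩ := Subgroup.mem_zpowers_iff.mp hn
      have h1 : k * y ^ j = y ^ j * k := Subgroup.mem_center_iff.mp ((Subgroup.center G).zpow_mem hyc j) k
      rw [h1, mul_inv_cancel_right]
      exact hn
    have hy1 : Subgroup.zpowers y ≠ ⊥ := by
      rw [Ne, Subgroup.zpowers_eq_bot]
      rintro h
      rw [h, orderOf_one] at hyo
      omega
    have h1 := hquot (Subgroup.zpowers y) hy1 g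
    rw [oddCore_quot_central hyo hyc hO, Subgroup.mem_bot] at h1
    have h2 : z * g * z⁻¹ * g⁻¹ ∈ Subgroup.zpowers y := (QuotientGroup.eq_one_iff _).mp h1
    have h3 : Subgroup.zpowers y ≤ (S : Subgroup G) := Subgroup.zpowers_le.mpr hyS
    have h4 := (S : Subgroup G).mul_mem ((S : Subgroup G).inv_mem hzS) (h3 h2)
    have e : z⁻¹ * (z * g * z⁻¹ * g⁻¹) = (g * z * g⁻¹)⁻¹ := by group
    rw [e] at h4
    have h5 := hz g ((S : Subgroup G).inv_mem_iff.mp h4)
    have h6 : z * g * z⁻¹ * g⁻¹ = z * (g * z * g⁻¹)⁻¹ := by group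
    rw [h6, h5, mul_inv_cancel]
    exact Subgroup.one_mem _
  · have h1 := hquot (oddCore G) hO g
    have h2 : oddCore (G ⧸ oddCore G) = ⊥ := L0.pPrimeCore_quotient_pPrimeCore 2 G
    rw [h2, Subgroup.mem_bot] at h1
    exact (QuotientGroup.eq_one_iff _).mp h1

theorem center_group_two (S : Sylow 2 G) : (groupFusionSystem (S : Subgroup G)).center =
    (S : Subgroup G) ⊓ (Subgroup.center (G ⧸ oddCore G)).comap (QuotientGroup.mk' (oddCore G)) := by
  haveI : Fact (Nat.Prime 2) := ⟨Nat.prime_two⟩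
  ext z
  rw [mem_center_iff S.2 (group_saturated S)]
  constructor
  · rintro ⟨hzS, hfix⟩
    refine Subgroup.mem_inf.mpr ⟨hzS, ?_⟩
    rw [Subgroup.mem_comap, Subgroup.mem_center_iff]
    intro a
    obtain ⟨a, rfl⟩ := QuotientGroup.mk'_surjective _ a
    have h1 := zstar_sylow _ G rfl S z hzS (fun g hg => by
      have h2 := hfix (Subgroup.zpowers z) (conjHom _ g) ⟨Subgroup.zpowers_le.mpr hzS, ?_, g, fun x => rfl⟩ (Subgroup.mem_zpowers _)
      · exact h2
      · have h3 : Subgroup.zpowers z ≤ (S : Subgroup G).comap (MulAut.conj g).toMonoidHom := by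
          rw [Subgroup.zpowers_le]; exact hg
        exact fun x => h3 x.2) a
    have h2 : QuotientGroup.mk' (oddCore G) (z * a * z⁻¹ * a⁻¹) = 1 := (QuotientGroup.eq_one_iff _).mpr h1
    rw [map_mul, map_mul, map_mul, map_inv, map_inv, mul_inv_eq_one, mul_inv_eq_iff_eq_mul] at h2
    exact h2.symm
  · intro h
    obtain ⟨hzS, hz⟩ := Subgroup.mem_inf.mp h
    refine ⟨hzS, ?_⟩
    rintro P φ ⟨hP, hφ, a, ha⟩ hzP
    rw [Subgroup.mem_comap, Subgroup.mem_center_iff] at hz
    have h1 := hz (QuotientGroup.mk' _ a)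
    rw [← map_mul, ← map_mul] at h1
    have h2 : (a * z)⁻¹ * (z * a) ∈ oddCore G := QuotientGroup.eq.mp h1
    have h3 : z⁻¹ * (a * z * a⁻¹) ∈ oddCore G := by
      have hn : (oddCore G).Normal := inferInstance
      have h4 := hn.conj_mem _ ((oddCore G).inv_mem h2) a
      have e : a * ((a * z)⁻¹ * (z * a))⁻¹ * a⁻¹ = z⁻¹ * (a * z * a⁻¹) := by group
      rwa [e] at h4
    have h4 := ha ⟨z, hzP⟩
    have h5 : z⁻¹ * (a * z * a⁻¹) ∈ (S : Subgroup G) := (S : Subgroup G).mul_mem ((S : Subgroup G).inv_mem hzS) (h4 ▸ hφ _)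
    obtain ⟨k, hk⟩ := S.2 ⟨_, h5⟩
    have hk' : (z⁻¹ * (a * z * a⁻¹)) ^ 2 ^ k = 1 := congrArg Subtype.val hk
    have h6 : (z⁻¹ * (a * z * a⁻¹)) ^ Nat.card (oddCore G) = 1 := by
      have := pow_card_eq_one' (x := (⟨_, h3⟩ : oddCore G))
      exact congrArg Subtype.val this
    have h7 : orderOf (z⁻¹ * (a * z * a⁻¹)) = 1 := by
      have h8 : orderOf (z⁻¹ * (a * z * a⁻¹)) ∣ 2 ^ k := orderOf_dvd_of_pow_eq_one hk'
      have h9 : orderOf (z⁻¹ * (a * z * a⁻¹)) ∣ Nat.card (oddCore G) := orderOf_dvd_of_pow_eq_one h6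
      have h10 : (2 ^ k).Coprime (Nat.card (oddCore G)) := by
        apply Nat.Coprime.pow_left
        exact (Nat.coprime_two_left.mpr (L0.odd_card_oddCore G))
      exact Nat.eq_one_of_dvd_coprimes h10 h8 h9
    rw [orderOf_eq_one_iff, inv_mul_eq_one] at h7
    rw [h4]; exact h7.symm

end

end Cfsg.Agent.L0.Fus
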